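import Cfsg.Agent.H289.Ux.UK4

/-!
# UK3 (S5716): the quadratic form is nondegenerate
-/

set_option autoImplicit false

namespace Cfsg.Agent.H791.UK

open Module Cfsg.Agent.H847.Bs Cfsg.Agent.LieClassical.OrthCore QuadraticMap

variable {F U : Type} [Field F] [Finite F] [AddCommGroup U] [Module F U] [Module.Finite F U]

/-- the polar form of `Q'` is nondegenerate -/
theorem quad_nd {K : Subgroup (U ≃ₗ[F] U)} (hirr : IrrG K) (hd : 3 ≤ finrank F U) {Q' : QuadraticForm F U}
    (hns : ∀ v, Q' v = 0 → (∀ w, polar Q' v w = 0) → v = 0) (hsim : ∀ h ∈ K, ∃ c : F, ∀ v, Q' (h v) = c * Q' v) :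
    (frmQ Q').Nd := by
  intro v hv
  refine Cfsg.Agent.H289.Ux.quad_nd K hirr (by omega) Q' hns hsim v fun w => ?_
  exact hv w

end Cfsg.Agent.H791.UK
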